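import Cfsg.Agent.SporB.SuzG.Facts

/-! The subgroup of index 1782 of the presented Suzuki group is `G₂(4)`. -/

set_option autoImplicit false
set_option maxRecDepth 100000

namespace Cfsg.Agent.SporB.SuzukiHex

open Cfsg.Agent.CosetCert Cfsg.Agent.CosetEnum Cfsg.Agent.GKTools.G2Model

local notation "F4" => Cfsg.Agent.Plane21.F4

/-- **The isomorphism.** -/
theorem gSub_iso :
    ∃ (K : Type) (_ : Field K) (_ : Fintype K), Fintype.card K = 4 ∧
      Nonempty (gSub ≃* Cfsg.Lie.chevG2.group K) := by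
  classical
  refine ⟨F4, inferInstance, inferInstance, Cfsg.Agent.Plane21.F4.card_F4, ?_⟩
  obtain ⟨-, hcard⟩ := CosetEnum.Suzuki.main
  obtain ⟨φ, hof, -, -, -⟩ :
      ∃ φ : Cfsg.Spor.Suz →* Equiv.Perm (Fin 1782),
        (∀ a, φ (PresentedGroup.of a) =
          (PresData.genPerm SuzukiG.valid a : Equiv.Perm (Fin 1782))) ∧
        ∃ e : Cfsg.Spor.Suz ⧸ (Subgroup.closure {r | r ∈ SuzukiG.gensList}).map
            (PresentedGroup.mk _) ≃ Fin 1782,
          (∀ g q, e (g • q) = φ g (e q)) ∧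
            e ((1 : Cfsg.Spor.Suz) : Cfsg.Spor.Suz ⧸ _) = 0 :=
    enum_spec SuzukiG.valid SuzukiG.word_letters SuzukiG.base_letters
  have hfinG : Finite Cfsg.Spor.Suz := Nat.finite_of_card_ne_zero (by rw [hcard]; norm_num)
  have hidx : gSub.index = 1782 := gSub_eq ▸
    (index_eq SuzukiG.valid SuzukiG.word_letters SuzukiG.base_letters).trans (by decide +kernel)
  have hcardK : Nat.card gSub = 251596800 := by
    have h := gSub.card_mul_index
    rw [hidx, hcard] at h
    omega
  have hval : ∀ (j : Fin 6) (x : Fin 1782),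
      (φ (letter j) x : ℕ) = SuzukiG.data.run [(j : ℕ) + 1] x := by
    intro j x
    have hle : (j : ℕ) + 1 ≤ SuzukiG.data.cols.length :=
      le_trans (Nat.succ_le_of_lt j.2) (by decide +kernel)
    show (φ (PresentedGroup.mk _ _) x : ℕ) = _
    rw [PresData.map_act SuzukiG.data (PresentedGroup.mk _), PresData.map_act SuzukiG.data φ]
    rw [show (φ ∘ PresentedGroup.mk _ ∘ FreeGroup.of) = PresData.genPerm SuzukiG.valid from
      funext hof]
    have h1 : 1 ≤ (j : ℕ) + 1 := Nat.le_add_left 1 _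
    erw [PresData.act_genPerm SuzukiG.valid h1 hle]
    exact (PresData.perm_apply SuzukiG.valid h1 hle x).trans rfl
  have hgood : ∀ j, Induces (φ (letter j)) (genP j) := by
    intro j k
    ext y
    rw [Finset.mem_image, mem_fiveSet]
    show _ ↔ (y : ℕ) ∈ five (genN j k)
    rw [← gen_compat]
    constructor
    · rintro ⟨x, hx, rfl⟩
      exact ⟨x, mem_fiveSet.1 hx, (hval j x).symm⟩
    · rintro ⟨x, hx, hxy⟩
      exact ⟨⟨x, five_lt k x hx⟩, mem_fiveSet.2 hx, Fin.ext ((hval j _).trans hxy)⟩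
  have hall : ∀ s : gSub, ∃ Q, Q ∈ genGroup ∧ Induces (φ s) Q := by
    rintro ⟨x, hx⟩
    have hxm : φ x ∈ gSub.map φ := ⟨x, hx, rfl⟩
    rw [gSub_closure, MonoidHom.map_closure, ← Subgroup.mem_toSubmonoid,
      Subgroup.closure_toSubmonoid_of_finite] at hxm
    show ∃ Q, Q ∈ genGroup ∧ Induces (φ x) Q
    clear hx
    generalize φ x = p at hxm
    induction hxm using Submonoid.closure_induction with
    | one => exact ⟨1, one_mem _, Induces.one⟩
    | mul a b _ _ ha hb =>
      obtain ⟨P, hP', hP⟩ := ha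
      obtain ⟨Q, hQ', hQ⟩ := hb
      exact ⟨P * Q, mul_mem hP' hQ', hP.mul hQ⟩
    | mem p hp =>
      obtain ⟨_, ⟨j, rfl⟩, rfl⟩ := hp
      exact ⟨_, Subgroup.subset_closure ⟨j, rfl⟩, hgood j⟩
  choose f hfr hf using hall
  let ρ : gSub →* Equiv.Perm (Fin 1365) :=
    { toFun := f
      map_one' := (hf 1).unique (by simpa using Induces.one)
      map_mul' := fun s t => (hf (s * t)).unique (by simpa using (hf s).mul (hf t)) }
  have hgK : ∀ j, letter j ∈ gSub := fun j => gSub_closure ▸ Subgroup.subset_closure ⟨j, rfl⟩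
  have hρ : ∀ j, ρ ⟨_, hgK j⟩ = genP j := fun j => (hf ⟨_, hgK j⟩).unique (hgood j)
  have hrange : ρ.range = genGroup := by
    refine le_antisymm ?_ ?_
    · rintro _ ⟨s, rfl⟩; exact hfr s
    · rw [Subgroup.closure_le]
      rintro _ ⟨j, rfl⟩
      exact ⟨_, hρ j⟩
  obtain ⟨θ, hsurj, hker, -⟩ :=
    S1077.result (K := Cfsg.Agent.Plane21.F4) Cfsg.Lie.chevG2 (by simp)
  have hinjθ : Function.Injective θ := (MonoidHom.ker_eq_bot_iff θ).1
    (by rw [hker, S1078.result (K := Cfsg.Agent.Plane21.F4) Cfsg.Lie.chevG2 (by simp)])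
  let e := MulEquiv.ofBijective θ ⟨hinjθ, hsurj⟩
  have hsimpL := (S1055.result (F := Cfsg.Agent.Plane21.F4)
    ⟨Cfsg.Agent.Plane21.F4.w, by decide, by decide⟩).1
  let ψ : Cfsg.Lie.chevG2.group Cfsg.Agent.Plane21.F4 →* Equiv.Perm (Fin 1365) :=
    (projHom.comp hom).comp e.symm.toMonoidHom
  have hψle : ψ.range ≤ genGroup := by
    rintro _ ⟨g, rfl⟩
    show projHom (hom (e.symm g)) ∈ genGroup
    generalize e.symm g = x
    have hx : x ∈ genGroup.comap (projHom.comp hom) := by
      have htop : Subgroup.closure (Set.range (PresentedGroup.of :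
          _ → Cfsg.Lie.chevG2.SteinbergGroup Cfsg.Agent.Plane21.F4)) = ⊤ :=
        PresentedGroup.closure_range_of _
      have hle : (⊤ : Subgroup (Cfsg.Lie.chevG2.SteinbergGroup Cfsg.Agent.Plane21.F4)) ≤
          genGroup.comap (projHom.comp hom) := by
        rw [← htop, Subgroup.closure_le]
        rintro _ ⟨⟨r, t⟩, rfl⟩
        show projHom (hom (PresentedGroup.of (r, t))) ∈ genGroup
        rw [show hom (PresentedGroup.of (r, t)) = genImg (r, t) from PresentedGroup.toGroup.of _]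
        exact root_mem ⟨r.1, r.2⟩ t
      exact hle (Subgroup.mem_top x)
    exact hx
  have hψinj : Function.Injective ψ := by
    rw [← MonoidHom.ker_eq_bot_iff]
    rcases hsimpL.eq_bot_or_eq_top_of_normal ψ.ker inferInstance with h | h
    · exact h
    · exfalso
      have hx : ψ (e (Cfsg.Lie.chevG2.stGen Cfsg.Agent.Plane21.F4 0 Cfsg.Agent.Plane21.F4.o)) = 1 :=
        MonoidHom.mem_ker.1 (h ▸ Subgroup.mem_top _)
      have hx' : projHom (rootU 0 Cfsg.Agent.Plane21.F4.o) = 1 := by
        have e1 : hom (Cfsg.Lie.chevG2.stGen Cfsg.Agent.Plane21.F4 0 Cfsg.Agent.Plane21.F4.o) =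
            rootU 0 Cfsg.Agent.Plane21.F4.o :=
          lift_stX 0 (by norm_num) Cfsg.Agent.Plane21.F4.o
        rw [← e1]
        simpa [ψ] using hx
      have h2 : ∀ k : Fin 1365, idxT.get 16 (mv (root 0 Cfsg.Agent.Plane21.F4.o) (ptT.get 16 k)) % 1365
          = k := fun k => by
        have h3 := projHom_root 0 Cfsg.Agent.Plane21.F4.o k
        rw [hx'] at h3
        exact h3.symm
      revert h2
      decide +kernel
  have hψcard : Nat.card ψ.range = 251596800 := by
    rw [← Nat.card_congr (MonoidHom.ofInjective hψinj).toEquiv, GKTools.G2Four.card_L]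
    norm_num
  have hfinK : Finite gSub := inferInstance
  have hρle : Nat.card ρ.range ≤ 251596800 :=
    hcardK ▸ Nat.card_le_card_of_surjective ρ.rangeRestrict ρ.rangeRestrict_surjective
  have heq : ψ.range = ρ.range :=
    Subgroup.eq_of_le_of_card_ge (hrange ▸ hψle) (hρle.trans hψcard.ge)
  have hbij : Function.Bijective ρ.rangeRestrict :=
    (Nat.bijective_iff_surjective_and_card _).2
      ⟨ρ.rangeRestrict_surjective, by rw [hcardK, ← heq, hψcard]⟩
  exact ⟨(MulEquiv.ofBijective ρ.rangeRestrict hbij).trans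
    ((MulEquiv.subgroupCongr heq.symm).trans (MonoidHom.ofInjective hψinj).symm)⟩

end Cfsg.Agent.SporB.SuzukiHex
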