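import Cfsg.Agent.SporB.SuzG.Proj
import Cfsg.Agent.CosetEnum.Suzuki.Main

/-! Finite facts about the subgroup of index 1782 of the presented Suzuki group acting on 1365
blocks of five suborbit points. -/

set_option autoImplicit false
set_option maxRecDepth 100000

namespace Cfsg.Agent.SporB.SuzukiHex

open Cfsg.Agent.CosetCert Cfsg.Agent.CosetEnum Cfsg.Agent.GKTools.G2Model

local notation "F4" => Cfsg.Agent.Plane21.F4

/-- The subgroup of index 1782. -/
abbrev gSub : Subgroup Cfsg.Spor.Suz :=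
  (Subgroup.closure ({Cfsg.Spor.Suz.a, Cfsg.Spor.Suz.b, Cfsg.Spor.Suz.c, Cfsg.Spor.Suz.d,
    Cfsg.Spor.Suz.e, Cfsg.Spor.Suz.f} :
      Set (FreeGroup Cfsg.Spor.Suz.Gen))).map (PresentedGroup.mk _)

theorem gSub_eq :
    (Subgroup.closure {r | r ∈ SuzukiG.gensList}).map (PresentedGroup.mk _) = gSub := by
  have hset : {r | r ∈ SuzukiG.gensList} =
      ({Cfsg.Spor.Suz.a, Cfsg.Spor.Suz.b, Cfsg.Spor.Suz.c, Cfsg.Spor.Suz.d,
        Cfsg.Spor.Suz.e, Cfsg.Spor.Suz.f} : Set (FreeGroup Cfsg.Spor.Suz.Gen)) := by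
    ext r
    simp [SuzukiG.gensList]
  rw [hset]

/-- A generator. -/
noncomputable def letter (j : Fin 6) : Cfsg.Spor.Suz :=
  PresentedGroup.mk _ (SuzukiG.data.act FreeGroup.of ((j : ℕ) + 1))

theorem gSub_closure : gSub = Subgroup.closure (Set.range letter) := by
  rw [← gSub_eq, MonoidHom.map_closure]
  apply le_antisymm <;> rw [Subgroup.closure_le]
  · rintro _ ⟨r, hr, rfl⟩
    refine Subgroup.subset_closure ?_
    have hb : ∀ r ∈ SuzukiG.gensList, ∃ j : Fin 6,
        r = SuzukiG.data.act FreeGroup.of ((j : ℕ) + 1) := by decide +kernel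
    obtain ⟨j, hj⟩ := hb r hr
    exact ⟨j, by rw [hj]; rfl⟩
  · rintro _ ⟨j, rfl⟩
    refine Subgroup.subset_closure ⟨SuzukiG.data.act FreeGroup.of ((j : ℕ) + 1), ?_, rfl⟩
    revert j
    show ∀ j : Fin 6, _ ∈ SuzukiG.gensList
    decide +kernel

/-- The five suborbit points of a projective point. -/
noncomputable def five (k : ℕ) : List ℕ := (List.range 5).map fun i => linesT.get 16 (5 * k + i)

theorem five_lt : ∀ k : Fin 1365, ∀ x ∈ five k, x < 1782 := by decide +kernel

/-- The same as a finite set. -/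
noncomputable def fiveSet (k : Fin 1365) : Finset (Fin 1782) :=
  Finset.univ.filter fun x => (x : ℕ) ∈ five k

theorem mem_fiveSet {k : Fin 1365} {x : Fin 1782} : x ∈ fiveSet k ↔ (x : ℕ) ∈ five k := by
  simp [fiveSet]

theorem fiveSet_injective : Function.Injective fiveSet := by
  intro k k' h
  have h1 : ∀ k : Fin 1365, ∃ a ∈ five k, ∃ b ∈ five k, a = linesT.get 16 (5 * k) ∧
      b = linesT.get 16 (5 * k + 1) ∧
      ((List.range 5).all fun i => Nat.beq (thruT.get 16 (5 * a + i)) k ||
        !((five (thruT.get 16 (5 * a + i))).contains b)) = true := by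
    intro k
    refine ⟨_, ?_, _, ?_, rfl, rfl, ?_⟩
    · exact List.mem_map.2 ⟨0, by simp, by simp⟩
    · exact List.mem_map.2 ⟨1, by simp, rfl⟩
    · revert k
      decide +kernel
  have h2 : ∀ k : Fin 1365, ∀ x ∈ five k,
      ∃ i < 5, thruT.get 16 (5 * x + i) = (k : ℕ) := by decide +kernel
  obtain ⟨a, ha, b, hb, -, -, hall⟩ := h1 k
  have hmem : ∀ x, x ∈ five k → x ∈ five k' := by
    intro x hx
    have hx' : (⟨x, five_lt k x hx⟩ : Fin 1782) ∈ fiveSet k := mem_fiveSet.2 hx
    rw [h] at hx'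
    exact mem_fiveSet.1 hx'
  obtain ⟨i, hi, hik⟩ := h2 k' a (hmem a ha)
  have hc := List.all_eq_true.1 hall i (List.mem_range.2 hi)
  rw [hik, Bool.or_eq_true] at hc
  rcases hc with hc | hc
  · exact Fin.ext (Nat.eq_of_beq_eq_true hc).symm
  · have hb' : (five (k' : ℕ)).contains b = true := List.contains_iff_mem.2 (hmem b hb)
    rw [hb'] at hc
    exact absurd hc (by decide)

/-- `Q` is the permutation of projective points induced by `p`. -/
def Induces (p : Equiv.Perm (Fin 1782)) (Q : Equiv.Perm (Fin 1365)) : Prop :=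
  ∀ k : Fin 1365, (fiveSet k).image p = fiveSet (Q k)

theorem Induces.mul {p q : Equiv.Perm (Fin 1782)} {P Q : Equiv.Perm (Fin 1365)} (hp : Induces p P)
    (hq : Induces q Q) : Induces (p * q) (P * Q) := by
  intro k
  rw [Equiv.Perm.mul_apply, ← hp (Q k), ← hq k, Finset.image_image]
  rfl

theorem Induces.one : Induces 1 1 := fun k => by simp

theorem Induces.unique {p : Equiv.Perm (Fin 1782)} {P Q : Equiv.Perm (Fin 1365)} (hp : Induces p P)
    (hq : Induces p Q) : P = Q :=
  Equiv.ext fun k => fiveSet_injective ((hp k).symm.trans (hq k))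

/-- The table of a generator. -/
noncomputable def genN (j k : ℕ) : ℕ := (genT.getD j (.leaf 0)).get 16 k

theorem genN_inv : ∀ j : Fin 6, ∀ k : Fin 1365, genN j k < 1365 ∧ genN j (genN j k) = k := by
  decide +kernel

/-- The permutation of a generator. -/
noncomputable def genP (j : Fin 6) : Equiv.Perm (Fin 1365) where
  toFun k := ⟨genN j k, (genN_inv j k).1⟩
  invFun k := ⟨genN j k, (genN_inv j k).1⟩
  left_inv k := Fin.ext (genN_inv j k).2
  right_inv k := Fin.ext (genN_inv j k).2

theorem gen_compat (j : Fin 6) (k : Fin 1365) (y : ℕ) :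
    (∃ x ∈ five k, SuzukiG.data.run [(j : ℕ) + 1] x = y) ↔ y ∈ five (genN j k) := by
  have h : ∀ j : Fin 6, ∀ k : Fin 1365,
      ((five k).all fun x => (five (genN j k)).contains (SuzukiG.data.run [(j : ℕ) + 1] x)) = true ∧
      ((five (genN j k)).all fun y =>
        (five k).any fun x => Nat.beq (SuzukiG.data.run [(j : ℕ) + 1] x) y) = true := by
    decide +kernel
  constructor
  · rintro ⟨x, hx, rfl⟩
    exact List.contains_iff_mem.1 (List.all_eq_true.1 (h j k).1 x hx)
  · intro hy
    obtain ⟨x, hx, hxy⟩ := List.any_eq_true.1 (List.all_eq_true.1 (h j k).2 y hy)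
    exact ⟨x, hx, Nat.eq_of_beq_eq_true hxy⟩

/-- A word through the tables of the generators. -/
noncomputable def runG (w : List ℕ) : ℕ → ℕ :=
  List.rec (motive := fun _ => ℕ → ℕ) (fun i => i) (fun l _ ih i => ih (genN (l - 1) i)) w

/-- The permutation of a letter. -/
noncomputable def letterP (l : ℕ) : Equiv.Perm (Fin 1365) :=
  if h : l - 1 < 6 then genP ⟨l - 1, h⟩ else 1

theorem runG_spec : ∀ w : List ℕ, (∀ l ∈ w, l - 1 < 6) →
    ∀ i : Fin 1365, (pval letterP w i : ℕ) = runG w i := by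
  intro w
  induction w with
  | nil => intro _ i; rfl
  | cons l ls ih =>
    intro hw i
    rw [pval, Equiv.Perm.mul_apply, ih fun m hm => hw m (List.mem_cons_of_mem _ hm)]
    have hl := hw l List.mem_cons_self
    rw [letterP, dif_pos hl]
    rfl

/-- The six permutations generate. -/
noncomputable abbrev genGroup : Subgroup (Equiv.Perm (Fin 1365)) :=
  Subgroup.closure (Set.range genP)

theorem letterP_mem (l : ℕ) : letterP l ∈ genGroup := by
  unfold letterP
  split
  · exact Subgroup.subset_closure ⟨_, rfl⟩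
  · exact one_mem _

theorem root_mem (r : Fin 12) (t : F4) : projHom (rootU r t) ∈ genGroup := by
  have hw : ∀ x ∈ rootWords, x.1 < 12 ∧ (∀ l ∈ x.2.2, l - 1 < 6) ∧
      allB (fun k => Nat.ble 1365 k || Nat.beq
        (idxT.get 16 (mv (root x.1 (Cfsg.Agent.Plane21.F4.ofCode x.2.1)) (ptT.get 16 k)) % 1365)
        (runG x.2.2 k)) 11 0 = true := by
    decide +kernel
  have hbase : ∀ t : F4, t = Cfsg.Agent.Plane21.F4.o ∨ t = Cfsg.Agent.Plane21.F4.w →
      ∀ r : Fin 12, projHom (rootU r t) ∈ genGroup := by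
    intro t ht r
    have hex : ∀ r : Fin 12, ∀ c, c = 1 ∨ c = 2 →
        ∃ x ∈ rootWords, x.1 = (r : ℕ) ∧ x.2.1 = c := by
      intro r c hc
      rcases hc with rfl | rfl <;> revert r <;> decide +kernel
    obtain ⟨x, hx, hx1, hx2⟩ := hex r t.code (by rcases ht with rfl | rfl <;> decide)
    obtain ⟨-, hl, hall⟩ := hw x hx
    have e : projHom (rootU r t) = pval letterP x.2.2 := by
      refine Equiv.ext fun k => Fin.ext ?_
      rw [projHom_root, runG_spec _ hl]
      have h := allB_spec_zero hall (by norm_num : 1365 ≤ 2 ^ 11) k.2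
      rw [Bool.or_eq_true] at h
      rcases h with h | h
      · exact absurd (Nat.le_of_ble_eq_true h) (not_le.2 k.2)
      · rw [hx1, hx2, ofCode_code] at h
        exact Nat.eq_of_beq_eq_true h
    rw [e]
    generalize x.2.2 = w
    induction w with
    | nil => exact one_mem _
    | cons l ls ih => exact mul_mem ih (letterP_mem l)
  have hadd : ∀ a b : F4, rootU r a * rootU r b = rootU r (a + b) := by
    intro a b
    refine Units.ext ?_
    show toM (root r a) * toM (root r b) = toM (root r (a + b))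
    have h := okAdd_true
    simp only [okAdd, List.all_eq_true, List.mem_range, decide_eq_true_eq] at h
    rw [← toM_mul, h r r.2 a (mem_els a) b (mem_els b)]
  cases t with
  | z =>
    have e := hadd Cfsg.Agent.Plane21.F4.o Cfsg.Agent.Plane21.F4.o
    rw [show Cfsg.Agent.Plane21.F4.o + Cfsg.Agent.Plane21.F4.o = Cfsg.Agent.Plane21.F4.z by decide] at e
    rw [← e, map_mul]
    exact mul_mem (hbase _ (Or.inl rfl) r) (hbase _ (Or.inl rfl) r)
  | o => exact hbase _ (Or.inl rfl) r
  | w => exact hbase _ (Or.inr rfl) r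
  | u =>
    have e := hadd Cfsg.Agent.Plane21.F4.o Cfsg.Agent.Plane21.F4.w
    rw [show Cfsg.Agent.Plane21.F4.o + Cfsg.Agent.Plane21.F4.w = Cfsg.Agent.Plane21.F4.u by decide] at e
    rw [← e, map_mul]
    exact mul_mem (hbase _ (Or.inl rfl) r) (hbase _ (Or.inr rfl) r)

end Cfsg.Agent.SporB.SuzukiHex
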