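import Cfsg.Agent.SporB.SuzG.Data
import Cfsg.Agent.GKTools.G2Four

/-! The Chevalley group of type `G₂` over four elements as permutations of the 1365 points of
projective five-space. -/

set_option autoImplicit false
set_option maxRecDepth 100000

namespace Cfsg.Agent.SporB.SuzukiHex

open Cfsg.Agent.CosetCert Cfsg.Agent.GKTools.G2Model

local notation "F4" => Cfsg.Agent.Plane21.F4

/-- Vectors. -/
abbrev Vec : Type := Fin 6 → Cfsg.Agent.Plane21.F4

/-- Vector of a number. -/
def vecN (c : ℕ) : Vec := fun i => Cfsg.Agent.Plane21.F4.ofCode (c / 4 ^ i.val % 4)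

/-- Number of a vector. -/
def enc (v : Vec) : ℕ :=
  (v 0).code + 4 * (v 1).code + 16 * (v 2).code + 64 * (v 3).code + 256 * (v 4).code +
    1024 * (v 5).code

theorem code_lt : ∀ x : F4, x.code < 4 := by decide
theorem ofCode_code : ∀ x : F4, Cfsg.Agent.Plane21.F4.ofCode x.code = x := by decide
theorem code_ofCode : ∀ d, d < 4 → (Cfsg.Agent.Plane21.F4.ofCode d).code = d := by decide

theorem enc_lt (v : Vec) : enc v < 4096 := by
  have := code_lt (v 0); have := code_lt (v 1); have := code_lt (v 2)
  have := code_lt (v 3); have := code_lt (v 4); have := code_lt (v 5)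
  unfold enc; omega

theorem vecN_enc (v : Vec) : vecN (enc v) = v := by
  funext i
  have h0 := code_lt (v 0); have h1 := code_lt (v 1); have h2 := code_lt (v 2)
  have h3 := code_lt (v 3); have h4 := code_lt (v 4); have h5 := code_lt (v 5)
  have key : enc v / 4 ^ i.val % 4 = (v i).code := by
    unfold enc
    generalize e0 : (v 0).code = c0 at h0 ⊢
    generalize e1 : (v 1).code = c1 at h1 ⊢
    generalize e2 : (v 2).code = c2 at h2 ⊢
    generalize e3 : (v 3).code = c3 at h3 ⊢
    generalize e4 : (v 4).code = c4 at h4 ⊢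
    generalize e5 : (v 5).code = c5 at h5 ⊢
    fin_cases i
    · show _ = (v 0).code; rw [e0]; norm_num; omega
    · show _ = (v 1).code; rw [e1]; norm_num; omega
    · show _ = (v 2).code; rw [e2]; norm_num; omega
    · show _ = (v 3).code; rw [e3]; norm_num; omega
    · show _ = (v 4).code; rw [e4]; norm_num; omega
    · show _ = (v 5).code; rw [e5]; norm_num; omega
  rw [vecN, key, ofCode_code]

theorem enc_vecN {c : ℕ} (hc : c < 4096) : enc (vecN c) = c := by
  simp only [enc, vecN, code_ofCode _ (Nat.mod_lt _ (by norm_num))]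
  norm_num
  omega

/-- Index of the point of a vector. -/
noncomputable def idx (v : Vec) : Fin 1365 :=
  ⟨idxT.get 16 (enc v) % 1365, Nat.mod_lt _ (Nat.succ_pos _)⟩

/-- Representative of a point. -/
noncomputable def pt (k : Fin 1365) : Vec := vecN (ptT.get 16 k.val)

/-- `w` is `s • v`, coordinatewise. -/
def isMult (s : F4) (v w : Vec) : Bool := (List.finRange 6).all fun i => decide (w i = s * v i)

theorem isMult_spec {s : F4} {v w : Vec} (h : isMult s v w = true) : w = s • v :=
  funext fun i => of_decide_eq_true (List.all_eq_true.1 h i (List.mem_finRange i))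

theorem pt_lt : ∀ k : Fin 1365, 0 < ptT.get 16 k ∧ ptT.get 16 k < 4096 := by decide +kernel

theorem pt_ne_zero (k : Fin 1365) : pt k ≠ 0 := by
  intro h
  have h1 := congrArg enc h
  rw [pt, enc_vecN (pt_lt k).2] at h1
  have h2 : enc (0 : Vec) = 0 := by decide
  have := (pt_lt k).1
  omega

theorem pt_spec (v : Vec) (h0 : v ≠ 0) : ∃ s : F4, s ≠ 0 ∧ v = s • pt (idx v) := by
  have hb : allB (fun n => Nat.beq n 0 ||
      ([Cfsg.Agent.Plane21.F4.o, Cfsg.Agent.Plane21.F4.w, Cfsg.Agent.Plane21.F4.u] : List F4).any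
        fun s => isMult s (pt (idx (vecN n))) (vecN n)) 12 0 = true := by
    decide +kernel
  have h := allB_spec_zero hb (by norm_num : 4096 ≤ 2 ^ 12) (enc_lt v)
  rw [vecN_enc, Bool.or_eq_true] at h
  rcases h with h | h
  · exfalso
    apply h0
    rw [← vecN_enc v, Nat.eq_of_beq_eq_true h]
    decide
  obtain ⟨s, hs, h1⟩ := List.any_eq_true.1 h
  refine ⟨s, ?_, isMult_spec h1⟩
  simp only [List.mem_cons, List.not_mem_nil, or_false] at hs
  rcases hs with rfl | rfl | rfl <;> decide

theorem idx_smul_pt : ∀ (s : F4) (k : Fin 1365), s ≠ 0 → idx (s • pt k) = k := by decide +kernel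

theorem idx_pt (k : Fin 1365) : idx (pt k) = k := by
  simpa using idx_smul_pt 1 k one_ne_zero

theorem idx_smul {s : F4} (hs : s ≠ 0) {v : Vec} (h0 : v ≠ 0) : idx (s • v) = idx v := by
  obtain ⟨t, ht, e⟩ := pt_spec v h0
  conv_lhs => rw [e]
  rw [smul_smul, idx_smul_pt _ _ (mul_ne_zero hs ht)]

/-- The image of a point. -/
noncomputable def moveFun (g : GL (Fin 6) F4) (k : Fin 1365) : Fin 1365 :=
  idx ((g : Matrix (Fin 6) (Fin 6) F4).mulVec (pt k))

theorem moveFun_one (k : Fin 1365) : moveFun 1 k = k := by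
  rw [moveFun, Units.val_one, Matrix.one_mulVec, idx_pt]

theorem mulVec_ne_zero (g : GL (Fin 6) F4) {v : Vec} (h : v ≠ 0) :
    (g : Matrix (Fin 6) (Fin 6) F4).mulVec v ≠ 0 := by
  intro h0
  apply h
  have h1 := congrArg (fun x => ((g⁻¹ : GL (Fin 6) F4) : Matrix (Fin 6) (Fin 6) F4).mulVec x) h0
  simpa [Matrix.mulVec_mulVec] using h1

theorem moveFun_mul (g h : GL (Fin 6) F4) (k : Fin 1365) :
    moveFun (g * h) k = moveFun g (moveFun h k) := by
  obtain ⟨s, hs, e⟩ := pt_spec _ (mulVec_ne_zero h (pt_ne_zero k))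
  unfold moveFun
  rw [Units.val_mul, ← Matrix.mulVec_mulVec]
  conv_lhs => rw [e]
  rw [Matrix.mulVec_smul, idx_smul hs (mulVec_ne_zero g (pt_ne_zero _))]

/-- The action on the points. -/
noncomputable def projHom : GL (Fin 6) F4 →* Equiv.Perm (Fin 1365) where
  toFun g :=
    { toFun := moveFun g
      invFun := moveFun g⁻¹
      left_inv := fun k => by rw [← moveFun_mul, inv_mul_cancel, moveFun_one]
      right_inv := fun k => by rw [← moveFun_mul, mul_inv_cancel, moveFun_one] }
  map_one' := Equiv.ext moveFun_one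
  map_mul' g h := Equiv.ext fun k => moveFun_mul g h k

/-- A packed row with a single column. -/
def colRow (c i : ℕ) : ℕ := c / 4 ^ i % 4 % 2 + 64 * (c / 4 ^ i % 4 / 2)

/-- The matrix with a vector in its first column. -/
def colM (c : ℕ) : M6 := ⟨colRow c 0, colRow c 1, colRow c 2, colRow c 3, colRow c 4, colRow c 5⟩

/-- The entry of the first column of a packed row. -/
def dig (r : ℕ) : ℕ := r % 2 + 2 * (r / 64 % 2)

/-- A matrix times a vector, on numbers. -/
def mv (A : M6) (c : ℕ) : ℕ :=
  let B := mmul A (colM c)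
  dig B.a + 4 * dig B.b + 16 * dig B.c + 64 * dig B.d + 256 * dig B.e + 1024 * dig B.f

theorem dig_spec (r : ℕ) : Cfsg.Agent.Plane21.F4.ofCode (dig r) = ent r 0 := by
  have h0 : r.testBit ((0 : Fin 6) : ℕ) = decide (r % 2 = 1) := Nat.testBit_zero r
  have h6 : r.testBit (6 + ((0 : Fin 6) : ℕ)) = decide (r / 64 % 2 = 1) := by
    rw [Nat.testBit_eq_decide_div_mod_eq]
    rfl
  unfold ent dig
  rw [h0, h6]
  rcases Nat.mod_two_eq_zero_or_one r with ha | ha <;>
    rcases Nat.mod_two_eq_zero_or_one (r / 64) with hb | hb <;> rw [ha, hb] <;> decide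

theorem mv_spec (A : M6) (c : ℕ) : (toM A).mulVec (vecN c) = vecN (mv A c) := by
  have hcol : ∀ k : Fin 6, vecN c k = toM (colM c) k 0 := by
    intro k
    have h : ∀ d, d < 4 → Cfsg.Agent.Plane21.F4.ofCode d = ent (d % 2 + 64 * (d / 2)) 0 := by
      decide
    fin_cases k <;> exact h _ (Nat.mod_lt _ (by norm_num))
  have hb : ∀ r, dig r < 4 := by intro r; unfold dig; omega
  funext i
  have hL : (toM A).mulVec (vecN c) i = toM (mmul A (colM c)) i 0 := by
    rw [toM_mul, Matrix.mul_apply]
    show ∑ k, toM A i k * vecN c k = _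
    exact Finset.sum_congr rfl fun k _ => by rw [hcol]
  rw [hL, vecN, mv]
  generalize mmul A (colM c) = B
  have := hb B.a; have := hb B.b; have := hb B.c; have := hb B.d; have := hb B.e; have := hb B.f
  generalize ha : dig B.a = da at *
  generalize hb' : dig B.b = db at *
  generalize hc : dig B.c = dc at *
  generalize hd : dig B.d = dd at *
  generalize he : dig B.e = de at *
  generalize hf : dig B.f = df at *
  fin_cases i
  · show ent B.a 0 = _
    rw [← dig_spec, ha]; congr 1; norm_num; omega
  · show ent B.b 0 = _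
    rw [← dig_spec, hb']; congr 1; norm_num; omega
  · show ent B.c 0 = _
    rw [← dig_spec, hc]; congr 1; norm_num; omega
  · show ent B.d 0 = _
    rw [← dig_spec, hd]; congr 1; norm_num; omega
  · show ent B.e 0 = _
    rw [← dig_spec, he]; congr 1; norm_num; omega
  · show ent B.f 0 = _
    rw [← dig_spec, hf]; congr 1; norm_num; omega

theorem projHom_root (r : Fin 12) (t : F4) (k : Fin 1365) :
    (projHom (rootU r t) k : ℕ) = idxT.get 16 (mv (root r t) (ptT.get 16 k)) % 1365 := by
  show (idx ((toM (root r t)).mulVec (vecN (ptT.get 16 k))) : ℕ) = _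
  rw [mv_spec]
  have h : mv (root r t) (ptT.get 16 k) < 4096 := by
    have hb : ∀ r, dig r < 4 := by intro r; unfold dig; omega
    unfold mv
    generalize mmul (root r t) (colM (ptT.get 16 k)) = B
    have := hb B.a; have := hb B.b; have := hb B.c; have := hb B.d; have := hb B.e; have := hb B.f
    dsimp only
    omega
  show idxT.get 16 (enc (vecN _)) % 1365 = _
  rw [enc_vecN h]

end Cfsg.Agent.SporB.SuzukiHex
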